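import Cfsg.Agent.SmallFrattiniCent.Basic

/-!
# The Sylow subgroup is dihedral of order 8
-/

namespace CfsgLib.SmallFrattiniCent

open scoped Pointwise

variable {L : Type*} [Group L] [Finite L] [IsSimpleGroup L]
variable {z : L} {R : Sylow 2 L}

omit [Finite L] [IsSimpleGroup L] in
theorem cen_mul {a b : L} (ha : Cen R a) (hb : Cen R b) : Cen R (a * b) :=
  ⟨mul_mem ha.1 hb.1, fun r hr => by rw [← mul_assoc, ha.2 r hr, mul_assoc, hb.2 r hr, mul_assoc]⟩

omit [Finite L] [IsSimpleGroup L] in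
theorem cen_one : Cen R (1 : L) := ⟨one_mem _, fun r _ => by rw [mul_one, one_mul]⟩

theorem cen_z (hS : Setup z R) : Cen R z := ⟨hS.z_mem, fun r hr => (hS.cent r).1 hr⟩

theorem good_eq (hS : Setup z R) {W W1 W2 : Subgroup L} (h : Good R W) (h1 : Good R W1) (h2 : Good R W2)
    (hne : W ≠ W1) (h12 : W1 ≠ W2) (hna : ∃ r ∈ (R : Subgroup L), ¬ Cen R r) : W = W2 := by
  have key : ∀ {W' : Subgroup L}, Good R W' → W' ≠ W1 →
      ∃ x ∈ W', x ∉ W1 := by
    intro W' h' hn
    by_contra hc
    push_neg at hc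
    apply hn
    refine le_antisymm hc fun w hw => ?_
    by_contra hwn
    obtain ⟨a, ha, haW⟩ := h1.prop
    rcases h'.split (h1.le hw) hwn ha with h3 | h3
    · exact haW (hc a h3)
    · exact haW ((Subgroup.mul_mem_cancel_right _ hw).1 (hc _ h3))
  obtain ⟨x, hx, hx1⟩ := key h hne
  obtain ⟨x2, hx2, hx21⟩ := key h2 (Ne.symm h12)
  have cenmem : ∀ {W' : Subgroup L}, Good R W' → W' ≠ W1 → ∀ w ∈ W', w ∈ W1 → Cen R w := by
    intro W' h' hn w hw hw1
    obtain ⟨u, hu, hu1⟩ := key h' hn
    exact h1.cen_of_comm (h'.le hu) hu1 hw1 (h'.commW hu hw)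
  have hu : x * x2 ∈ W1 := h1.two x (h.le hx) x2 (h2.le hx2) hx1 hx21
  have hucen : Cen R (x * x2) := by
    by_contra hcn
    have e := h1.conj_eq hS (h2.le hx2) hx21 hu hcn
    have ex2 : x2⁻¹ = x2 := inv_eq_of_mul_eq_one_right (h2.exp x2 hx2)
    have : x2 * x = z * (x * x2) := by
      rw [← e]; group
    have hxx := h.exp x hx
    -- squaring `x * x2`
    have : (x * x2) * (x * x2) = z := by
      calc (x * x2) * (x * x2) = x * (x2 * x) * x2 := by group
        _ = x * (z * (x * x2)) * x2 := by rw [this]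
        _ = (x * z) * x * (x2 * x2) := by group
        _ = z * (x * x) * (x2 * x2) := by rw [(hS.cent x).1 (h.le hx)]; group
        _ = z := by rw [hxx, h2.exp x2 hx2, mul_one, mul_one]
    rw [h1.exp _ hu] at this
    exact hS.ne_one this.symm
  have hxW2 : x ∈ W2 := by
    have := mul_mem (h2.cen_mem hna hucen) hx2
    rwa [mul_assoc, h2.exp x2 hx2, mul_one] at this
  ext v
  constructor
  · intro hv
    by_cases hv1 : v ∈ W1
    · exact h2.cen_mem hna (cenmem h hne v hv hv1)
    · have := cenmem h hne _ (mul_mem hv hx) (h1.two v (h.le hv) x (h.le hx) hv1 hx1)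
      have := mul_mem (h2.cen_mem hna this) hxW2
      rwa [mul_assoc, h.exp x hx, mul_one] at this
  · intro hv
    by_cases hv1 : v ∈ W1
    · exact h.cen_mem hna (cenmem h2 (Ne.symm h12) v hv hv1)
    · have := cenmem h2 (Ne.symm h12) _ (mul_mem hv hxW2) (h1.two v (h2.le hv) x (h.le hx) hv1 hx1)
      have := mul_mem (h.cen_mem hna this) hx
      rwa [mul_assoc, h.exp x hx, mul_one] at this

/-- For a non-`z` central element `f`, some good subgroup's normaliser moves it. -/
theorem moved (hS : Setup z R) {f : L} (hf : Cen R f) (hff : f * f = 1) (hf1 : f ≠ 1) :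
    ∃ W : Subgroup L, Good R W ∧ ¬ Good.Fix R W f := by
  obtain ⟨g, hg, hne⟩ := hS.moves hff hf1 hf.1
  have hyy : (g * f * g⁻¹) * (g * f * g⁻¹) = 1 := by
    calc (g * f * g⁻¹) * (g * f * g⁻¹) = g * (f * f) * g⁻¹ := by group
      _ = 1 := by rw [hff]; group
  obtain ⟨W, hW, _, _, h, hh, hhy⟩ :=
    hS.conj_good hf hg hyy hne (g := g⁻¹) (by group)
  refine ⟨W, hW, fun hfix => hne ?_⟩
  have := hfix.2 h⁻¹ (inv_mem hh)
  refine Eq.trans ?_ this
  calc g * f * g⁻¹ = h⁻¹ * (h * (g * f * g⁻¹) * h⁻¹) * h⁻¹⁻¹ := by group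
    _ = _ := by rw [hhy]

theorem dihedral (hS : Setup z R) : Nonempty (↥(R : Subgroup L) ≃* DihedralGroup 4) := by
  obtain ⟨gz, hgz, hgzne⟩ := hS.moves hS.sq hS.ne_one hS.z_mem
  obtain ⟨W1, hW1, hyW, hyn, h0, hh0, hhy⟩ := hS.conj_good (cen_z hS) hgz
    (by calc gz * z * gz⁻¹ * (gz * z * gz⁻¹) = gz * (z * z) * gz⁻¹ := by group
          _ = 1 := by rw [hS.sq]; group) hgzne (g := gz⁻¹) (by group)
  set y := gz * z * gz⁻¹ with hydef
  have hna : ∃ r ∈ (R : Subgroup L), ¬ Cen R r := ⟨y, hgz, hyn⟩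
  have zc := cen_z hS
  by_cases hex : ∃ f : L, Cen R f ∧ f ≠ 1 ∧ f ≠ z
  · exfalso
    obtain ⟨f, hf, hf1, hfz⟩ := hex
    have csq : ∀ c : L, Cen R c → c * c = 1 := fun c hc => hW1.exp c (hW1.cen_mem hna hc)
    have fixmul : ∀ {W : Subgroup L} {a b : L}, Good.Fix R W a → Good.Fix R W b → Good.Fix R W (a * b) := by
      intro W a b ha hb
      refine ⟨cen_mul ha.1 hb.1, fun h hh => ?_⟩
      rw [show h * (a * b) * h⁻¹ = h * a * h⁻¹ * (h * b * h⁻¹) by group, ha.2 h hh, hb.2 h hh]
    have hz1 : ¬ Good.Fix R W1 z := by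
      intro hfix
      apply hgzne
      have := hfix.2 h0⁻¹ (inv_mem hh0)
      rw [← this, ← hhy]; group
    -- some element of `W1`'s fixed points
    obtain ⟨f1, hf1c, hf11, hf1F⟩ : ∃ f1, Cen R f1 ∧ f1 ≠ 1 ∧ Good.Fix R W1 f1 := by
      by_cases h : Good.Fix R W1 f
      · exact ⟨f, hf, hf1, h⟩
      · refine ⟨f * z, cen_mul hf zc, fun he => hfz ?_, hW1.fix_mul hS hna hf zc h hz1⟩
        rw [eq_inv_of_mul_eq_one_left he, inv_eq_of_mul_eq_one_right hS.sq]
    obtain ⟨W2, hW2, hf12⟩ := moved hS hf1c (csq _ hf1c) hf11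
    have h12 : W1 ≠ W2 := fun e => hf12 (e ▸ hf1F)
    have nofix : ∀ c : L, Cen R c → c ≠ 1 → Good.Fix R W1 c → Good.Fix R W2 c → False := by
      intro c hc hc1 a1 a2
      obtain ⟨W, hW, hn⟩ := moved hS hc (csq _ hc) hc1
      by_cases he : W = W1
      · exact hn (he ▸ a1)
      · exact hn (good_eq hS hW hW1 hW2 he h12 hna ▸ a2)
    -- `F1 = {1, f1}`
    have F1 : ∀ c, Good.Fix R W1 c → c = 1 ∨ c = f1 := by
      intro c hc
      by_contra hcon
      push_neg at hcon
      have hcn : ¬ Good.Fix R W2 c := fun a2 => nofix c hc.1 hcon.1 hc a2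
      refine nofix _ (cen_mul hc.1 hf1c) (fun he => hcon.2 ?_) (fixmul hc hf1F)
        (hW2.fix_mul hS hna hc.1 hf1c hcn hf12)
      rw [eq_inv_of_mul_eq_one_left he, inv_eq_of_mul_eq_one_right (csq _ hf1c)]
    have H : ∀ c, Cen R c → c = 1 ∨ c = f1 ∨ c = z ∨ c = z * f1 := by
      intro c hc
      by_cases h : Good.Fix R W1 c
      · rcases F1 c h with h | h <;> tauto
      · have := hW1.fix_mul hS hna zc hc hz1 h
        have e : c = z * (z * c) := by rw [← mul_assoc, hS.sq, one_mul]
        rcases F1 _ this with h' | h' <;> rw [h'] at e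
        · rw [mul_one] at e; tauto
        · tauto
    have hz2 : ¬ Good.Fix R W2 z := by
      intro a2
      have hzf : Cen R (z * f1) := cen_mul zc hf1c
      obtain ⟨W, hW, hn⟩ := moved hS hf1c (csq _ hf1c) hf11
      -- `z` fixed by `N(W2)` means `N(W2) = R`
      apply hf12
      refine ⟨hf1c, fun h hh => ?_⟩
      rw [hf1c.2 h ((hS.cent h).2 (mul_inv_eq_iff_eq_mul.1 (a2.2 h hh))), mul_inv_cancel_right]
    set f2 := z * f1 with hf2def
    have hf2c : Cen R f2 := cen_mul zc hf1c
    have hf2F : Good.Fix R W2 f2 := hW2.fix_mul hS hna zc hf1c hz2 hf12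
    have hf21 : f2 ≠ 1 := fun e => hz1 (by
      have : z = f1 := by
        rw [eq_inv_of_mul_eq_one_left e, inv_eq_of_mul_eq_one_right (csq _ hf1c)]
      rw [this]; exact hf1F)
    have hf2z : f2 ≠ z := fun e => hf11 (mul_left_cancel (e.trans (mul_one z).symm))
    clear_value f2
    -- witnesses in the orbits of `z`
    have wit : ∀ {W : Subgroup L}, Good R W → ¬ Good.Fix R W z →
        ∃ n ∈ Subgroup.normalizer (W : Set L), n * z * n⁻¹ ∈ W ∧ n * z * n⁻¹ ≠ z ∧ ¬ Cen R (n * z * n⁻¹) := by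
      intro W hW hn
      by_contra hcon
      push_neg at hcon
      refine hn ⟨zc, fun h hh => ?_⟩
      by_contra hne
      exact hne (hS.burnside zc.2 hS.z_mem
        (hcon h hh ((Subgroup.mem_normalizer_iff.1 hh z).1 (hW.z_mem hS)) hne).2 rfl).symm
    obtain ⟨n1, hn1, hx1, hx1z, hx1n⟩ := wit hW1 hz1
    obtain ⟨n2, hn2, hx2, hx2z, hx2n⟩ := wit hW2 hz2
    set x1 := n1 * z * n1⁻¹ with hx1def
    set x2 := n2 * z * n2⁻¹ with hx2def
    have hx21 : x2 ∉ W1 := by
      intro hm
      apply hx2n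
      obtain ⟨u, hu, hu1⟩ : ∃ u ∈ W2, u ∉ W1 := by
        by_contra hc
        push_neg at hc
        apply h12
        refine le_antisymm (fun w hw => ?_) hc
        by_contra hwn
        obtain ⟨a, ha, haW⟩ := hW1.prop
        rcases hW2.split (hW1.le hw) hwn ha with h3 | h3
        · exact haW (hc a h3)
        · exact haW ((Subgroup.mul_mem_cancel_right _ hw).1 (hc _ h3))
      exact hW1.cen_of_comm (hW2.le hu) hu1 hm (hW2.commW hu hx2)
    -- the subgroup `U = {1, z, x1, z * x1}`
    have hzx1 : x1 * z = z * x1 := hW1.commW hx1 (hW1.z_mem hS)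
    have hx1s : x1 * x1 = 1 := hW1.exp _ hx1
    let U : Subgroup L :=
      { carrier := {u | u = 1 ∨ u = z ∨ u = x1 ∨ u = z * x1}
        mul_mem' := by
          intro a b ha hb
          have e1 : ∀ c : L, z * (z * c) = c := fun c => by rw [← mul_assoc, hS.sq, one_mul]
          have e2 : ∀ c : L, x1 * (z * c) = z * (x1 * c) := fun c => by
            rw [← mul_assoc, hzx1, mul_assoc]
          rcases ha with rfl | rfl | rfl | rfl <;> rcases hb with rfl | rfl | rfl | rfl <;>
            simp [mul_assoc, e1, e2, hS.sq, hx1s, hzx1]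
        one_mem' := Or.inl rfl
        inv_mem' := by
          intro a ha
          have : a⁻¹ = a := by
            refine inv_eq_of_mul_eq_one_right (hW1.exp a ?_)
            rcases ha with rfl | rfl | rfl | rfl
            exacts [one_mem _, hW1.z_mem hS, hx1, mul_mem (hW1.z_mem hS) hx1]
          rwa [this] }
    have hUW : ∀ u ∈ U, u ∈ W1 := by
      rintro a (rfl | rfl | rfl | rfl)
      exacts [one_mem _, hW1.z_mem hS, hx1, mul_mem (hW1.z_mem hS) hx1]
    have hzU : z ∈ U := Or.inr (Or.inl rfl)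
    have hUR : (R : Subgroup L) ≤ Subgroup.normalizer (U : Set L) := by
      intro r hr
      have key : ∀ r ∈ (R : Subgroup L), ∀ w ∈ U, r * w * r⁻¹ ∈ U := by
        intro r hr w hw
        rcases hS.comm_cases hr (hW1.le (hUW w hw)) with h1 | h1
        · rw [h1, mul_inv_cancel_right]; exact hw
        · have : r * w * r⁻¹ = z * w := by rw [h1]; group
          rw [this]; exact mul_mem hzU hw
      rw [Subgroup.mem_normalizer_iff]
      intro w
      refine ⟨key r hr w, fun h1 => ?_⟩
      simpa [mul_assoc] using key r⁻¹ (inv_mem hr) _ h1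
    have hx2R := hW2.le hx2
    set M : Subgroup L := U ⊔ Subgroup.zpowers x2 with hMdef
    have hmem : ∀ m ∈ M, m ∈ U ∨ m * x2 ∈ U := by
      intro m hm
      have hset : (↑M : Set L) = (U : Set L) * (Subgroup.zpowers x2 : Set L) :=
        Subgroup.coe_mul_of_right_le_normalizer_left U _ (Subgroup.zpowers_le.2 (hUR hx2R))
      have hm' : m ∈ (↑M : Set L) := hm
      rw [hset, Set.mem_mul] at hm'
      obtain ⟨u, hu, v, hv, rfl⟩ := hm'
      obtain ⟨k, rfl⟩ := Subgroup.mem_zpowers_iff.1 hv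
      have hsq : x2 ^ (2 : ℤ) = 1 := by rw [zpow_two]; exact hW2.exp _ hx2
      rcases Int.even_or_odd k with ⟨j, rfl⟩ | ⟨j, rfl⟩
      · left; rw [← two_mul, zpow_mul, hsq, one_zpow, mul_one]; exact hu
      · right
        rw [zpow_add_one, zpow_mul, hsq, one_zpow, one_mul, mul_assoc, hW2.exp _ hx2, mul_one]
        exact hu
    have hf2U : f2 ∉ U := by
      rintro (h | h | h | h)
      · exact hf21 h
      · exact hf2z h
      · exact hx1n (h ▸ hf2c)
      · refine hx1n ?_
        rw [show x1 = z * f2 by rw [h, ← mul_assoc, hS.sq, one_mul]]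
        exact cen_mul zc hf2c
    have hf2M : f2 ∉ M := by
      intro hm
      rcases hmem _ hm with h | h
      · exact hf2U h
      · exact hx21 ((Subgroup.mul_mem_cancel_left _ (hW1.cen_mem hna hf2c)).1 (hUW _ h))
    have hUM : U ≤ M := le_sup_left
    have hx2M : x2 ∈ M := Subgroup.mem_sup_right (Subgroup.mem_zpowers _)
    have hMR : M ≤ (R : Subgroup L) :=
      sup_le (fun u hu => hW1.le (hUW u hu)) (Subgroup.zpowers_le.2 hx2R)
    have hzM : z ∈ M := hUM hzU
    have hW1cases : ∀ w ∈ W1, w ∈ U ∨ w * f2 ∈ U := by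
      intro w hw
      have hcase : ∀ c : L, Cen R c → c ∈ U ∨ c * f2 ∈ U := by
        intro c hc
        have hf1f2 : f1 * f2 = z := by
          rw [hf2def, ← mul_assoc, ← (zc.2 f1 hf1c.1).symm, mul_assoc, csq _ hf1c, mul_one]
        rcases H c hc with rfl | rfl | rfl | rfl
        · exact Or.inl (one_mem _)
        · right; rw [hf1f2]; exact hzU
        · exact Or.inl hzU
        · right; rw [csq _ hf2c]; exact one_mem _
      by_cases hwc : Cen R w
      · exact hcase w hwc
      · have hc := hW1.mul_cen hS hw hx1 hwc hx1n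
        have e : w * x1 * x1 = w := by rw [mul_assoc, hx1s, mul_one]
        have hx1U : x1 ∈ U := Or.inr (Or.inr (Or.inl rfl))
        rcases hcase _ hc with h | h
        · left; exact (Subgroup.mul_mem_cancel_right _ hx1U).1 h
        · right
          have : w * x1 * f2 = w * f2 * x1 := by
            rw [mul_assoc, hf2c.2 x1 (hW1.le hx1), mul_assoc]
          rw [this] at h
          exact (Subgroup.mul_mem_cancel_right _ hx1U).1 h
    have hcover : ∀ b ∈ (R : Subgroup L), b ∈ M ∨ b * f2 ∈ M := by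
      intro b hb
      rcases hW1.split hx2R hx21 hb with h | h
      · rcases hW1cases b h with h | h
        exacts [Or.inl (hUM h), Or.inr (hUM h)]
      · rcases hW1cases _ h with h | h
        · exact Or.inl ((Subgroup.mul_mem_cancel_right _ hx2M).1 (hUM h))
        · refine Or.inr ((Subgroup.mul_mem_cancel_right _ hx2M).1 ?_)
          rw [mul_assoc, ← hf2c.2 x2 hx2R, ← mul_assoc]
          exact hUM h
    have hidx : M.relIndex (R : Subgroup L) = 2 := by
      refine Subgroup.index_eq_two_iff.2 ⟨⟨f2, hf2c.1⟩, fun b => ?_⟩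
      simp only [Subgroup.mem_subgroupOf, Subgroup.coe_mul]
      by_cases hb : (b : L) ∈ M
      · exact Or.inr ⟨hb, fun hc => hf2M ((Subgroup.mul_mem_cancel_left _ hb).1 hc)⟩
      · exact Or.inl ⟨(hcover b b.2).resolve_left hb, hb⟩
    obtain ⟨N, hN, hNi, hNf⟩ := CfsgLib.Transfer.thompson_transfer R hMR hidx (csq _ hf1c) (by
      intro g hgM
      have hf1f2 : f1 = z * f2 := by rw [hf2def, ← mul_assoc, hS.sq, one_mul]
      by_cases he : g * f1 * g⁻¹ = f1
      · rw [he, hf1f2] at hgM
        exact hf2M ((Subgroup.mul_mem_cancel_left _ hzM).1 hgM)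
      obtain ⟨W, hW, _, _, h, hh, hhy'⟩ := hS.conj_good hf1c (hMR hgM)
        (by calc g * f1 * g⁻¹ * (g * f1 * g⁻¹) = g * (f1 * f1) * g⁻¹ := by group
              _ = 1 := by rw [csq _ hf1c]; group) he (g := g⁻¹) (by group)
      have hy' : g * f1 * g⁻¹ = h⁻¹ * f1 * h⁻¹⁻¹ := by
        calc g * f1 * g⁻¹ = h⁻¹ * (h * (g * f1 * g⁻¹) * h⁻¹) * h⁻¹⁻¹ := by group
          _ = _ := by rw [hhy']
      by_cases hWe : W = W1
      · subst hWe
        exact he (by rw [hy', hf1F.2 _ (inv_mem hh)])
      have := good_eq hS hW hW1 hW2 hWe h12 hna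
      subst this
      have hhi := inv_mem hh
      rw [hy', hf1f2, show h⁻¹ * (z * f2) * h⁻¹⁻¹ = h⁻¹ * z * h⁻¹⁻¹ * (h⁻¹ * f2 * h⁻¹⁻¹) by group,
        hf2F.2 _ hhi] at hgM
      refine hf2M ((Subgroup.mul_mem_cancel_left _ ?_).1 hgM)
      by_cases e1 : h⁻¹ * z * h⁻¹⁻¹ = z
      · rw [e1]; exact hzM
      by_cases e2 : h⁻¹ * z * h⁻¹⁻¹ = n2 * z * n2⁻¹
      · rw [e2]; exact hx2M
      have := hW2.orbit_z hS hn2 hhi hx2z e1 e2
      rw [eq_inv_mul_of_mul_eq this]
      exact mul_mem (inv_mem hx2M) hzM)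
    rcases hN.eq_bot_or_eq_top with h | h
    · apply hS.nab
      rw [h, Subgroup.index_bot] at hNi
      haveI : Fact (Nat.Prime 2) := ⟨Nat.prime_two⟩
      haveI := isCyclic_of_prime_card hNi
      exact ⟨⟨fun a b => (IsCyclic.commGroup (α := L)).mul_comm a b⟩⟩
    · rw [h, Subgroup.index_top] at hNi; omega
  · push_neg at hex
    -- `R` has order 8
    have Z2 : ∀ c, Cen R c → c = 1 ∨ c = z := fun c hc => by
      by_cases h : c = 1
      · exact Or.inl h
      · exact Or.inr (hex c hc h)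
    obtain ⟨a, ha, haz⟩ := hS.exsq
    have haW : a ∉ W1 := fun h => hS.ne_one (haz ▸ hW1.exp a h)
    have hy2 : y * y = 1 := hW1.exp y hyW
    have hyi : y⁻¹ = y := inv_eq_of_mul_eq_one_right hy2
    have hay : a * y * a⁻¹ = z * y := hW1.conj_eq hS ha haW hyW hyn
    have ha4 : a ^ 4 = 1 := by
      rw [show 4 = 2 + 2 from rfl, pow_add, pow_two, haz, hS.sq]
    have hyay : y * a = a⁻¹ * y := by
      have h1 : a * y = z * y * a := by rw [← hay]; group
      have h2 : a⁻¹ = a * z :=
        inv_eq_of_mul_eq_one_right (by rw [← mul_assoc, haz, hS.sq])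
      calc y * a = z * (z * y * a) := by
            rw [mul_assoc z y, ← mul_assoc z z, hS.sq, one_mul]
        _ = z * (a * y) := by rw [h1]
        _ = a * z * y := by rw [← mul_assoc, (hS.cent a).1 ha]
        _ = a⁻¹ * y := by rw [h2]
    have hyak : ∀ k : ℕ, y * a ^ k = a⁻¹ ^ k * y := by
      intro k
      induction k with
      | zero => simp
      | succ k ih => rw [pow_succ, ← mul_assoc, ih, mul_assoc, hyay, ← mul_assoc, ← pow_succ]
    clear_value y
    let pw : ZMod 4 → L := fun i => a ^ i.val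
    have pmul : ∀ i j, pw i * pw j = pw (i + j) := by
      intro i j
      simp only [pw, ZMod.val_add, ← pow_add]
      exact pow_eq_pow_mod _ ha4
    have p0 : pw 0 = 1 := by simp [pw]
    have pinv : ∀ i, (pw i)⁻¹ = pw (-i) := fun i =>
      inv_eq_of_mul_eq_one_right (by rw [pmul, add_neg_cancel, p0])
    have pys : ∀ i, y * pw i = pw (-i) * y := by
      intro i
      rw [← pinv]
      show y * a ^ i.val = (a ^ i.val)⁻¹ * y
      rw [hyak, inv_pow]
    let φf : DihedralGroup 4 → ↥(R : Subgroup L)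
      | .r i => ⟨pw i, pow_mem ha _⟩
      | .sr i => ⟨y * pw i, mul_mem hgz (pow_mem ha _)⟩
    let φ : DihedralGroup 4 →* ↥(R : Subgroup L) := MonoidHom.mk' φf (by
      rintro (i | i) (j | j) <;> apply Subtype.ext <;>
        simp only [DihedralGroup.r_mul_r, DihedralGroup.r_mul_sr, DihedralGroup.sr_mul_r,
          DihedralGroup.sr_mul_sr, φf, Subgroup.coe_mul]
      · rw [pmul]
      · rw [← mul_assoc (pw i) y, show pw i * y = y * pw (-i) by rw [pys, neg_neg], mul_assoc, pmul]
        congr 2; abel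
      · rw [mul_assoc, pmul]
      · rw [← mul_assoc, pys i, mul_assoc (pw (-i)) y y, hy2, mul_one, pmul]
        congr 1; abel)
    have pW : ∀ i, pw i ∈ W1 → pw i = 1 ∨ pw i = z := by
      intro i hi
      have h4 : i.val < 4 := ZMod.val_lt i
      have hv : i.val = 0 ∨ i.val = 1 ∨ i.val = 2 ∨ i.val = 3 := by omega
      simp only [pw] at hi ⊢
      rcases hv with e | e | e | e <;> rw [e] at hi ⊢
      · left; simp
      · exact absurd (by simpa using hi) haW
      · right; rw [pow_two, haz]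
      · exfalso; apply haW
        have : a ^ 3 = z * a := by rw [pow_succ, pow_two, haz]
        rw [this] at hi
        exact (Subgroup.mul_mem_cancel_left _ (hW1.z_mem hS)).1 hi
    have hinj : Function.Injective φ := by
      rw [injective_iff_map_eq_one]
      rintro (i | i) hi
      · have hi' : a ^ i.val = 1 := congrArg Subtype.val hi
        have ho : orderOf a = 4 := by
          have : orderOf a = 2 ^ (1 + 1) := by
            refine orderOf_eq_prime_pow ?_ ?_
            · rw [pow_one, pow_two, haz]; exact hS.ne_one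
            · exact ha4
          simpa using this
        have := orderOf_dvd_of_pow_eq_one hi'
        rw [ho] at this
        have h0 : i.val = 0 := Nat.eq_zero_of_dvd_of_lt this (ZMod.val_lt i)
        rw [(ZMod.val_eq_zero i).1 h0]; rfl
      · have hi' : y * pw i = 1 := congrArg Subtype.val hi
        exfalso
        have e : pw i = y := by rw [← hyi]; exact eq_inv_of_mul_eq_one_right hi'
        have hc : pw i = 1 ∨ pw i = z := pW i (e ▸ hyW)
        rw [e] at hc
        rcases hc with h | h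
        · exact hyn (h ▸ cen_one)
        · exact hgzne h
    have hsurj : Function.Surjective φ := by
      rintro ⟨b, hb⟩
      have inW : ∀ w ∈ W1, w ∈ φ.range.map (R : Subgroup L).subtype := by
        intro w hw
        have hzr : z ∈ φ.range.map (R : Subgroup L).subtype :=
          ⟨⟨_, pow_mem ha _⟩, ⟨.r 2, rfl⟩, by
            show a ^ (2 : ZMod 4).val = z
            rw [show (2 : ZMod 4).val = 2 from rfl, pow_two, haz]⟩
        have hyr : y ∈ φ.range.map (R : Subgroup L).subtype :=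
          ⟨_, ⟨.sr 0, rfl⟩, by show y * pw 0 = y; rw [p0, mul_one]⟩
        by_cases hwc : Cen R w
        · rcases Z2 w hwc with rfl | rfl
          exacts [one_mem _, hzr]
        · rcases Z2 _ (hW1.mul_cen hS hw hyW hwc hyn) with h | h
          · rw [show w = y from (eq_inv_of_mul_eq_one_left h).trans hyi]; exact hyr
          · refine (Subgroup.mul_mem_cancel_right _ hyr).1 ?_
            rw [h]; exact hzr
      have har : a ∈ φ.range.map (R : Subgroup L).subtype :=
        ⟨_, ⟨.r 1, rfl⟩, by show a ^ (1 : ZMod 4).val = a; rw [show (1 : ZMod 4).val = 1 from rfl, pow_one]⟩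
      have hbr : b ∈ φ.range.map (R : Subgroup L).subtype := by
        rcases hW1.split ha haW hb with h | h
        · exact inW b h
        · exact (Subgroup.mul_mem_cancel_right _ har).1 (inW _ h)
      obtain ⟨u, ⟨d, hd⟩, hu⟩ := hbr
      exact ⟨d, Subtype.ext (by rw [hd]; exact hu)⟩
    exact ⟨(MulEquiv.ofBijective φ ⟨hinj, hsurj⟩).symm⟩

end CfsgLib.SmallFrattiniCent
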